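import Cfsg.Agent.H141.BM.Defs

/-!
# The three odd spherical characters (helper141)
-/

set_option autoImplicit false
set_option linter.unusedSectionVars false

namespace Cfsg.Agent.H141.BM

open Cfsg Cfsg.Agent.H816.IMEig Cfsg.Agent.H816.IMEig.Col Cfsg.Agent.Characters.Core Module

universe u v

section

variable {G : Type u} [Group G] {X : Type v} [MulAction G X] {ι : Type} [Fintype ι] [DecidableEq ι]
  {c : X → X → ι} {o : ι}

/-- The character of the eigenspace. -/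
theorem char_sub [Fintype X] [DecidableEq X] [Finite G] {x₀ z₀ : X} {t : ι → ι → ℕ} {θ : ℂ} {ω : ι → ℂ}
    (h : Col G X ι c o) (ht : ∀ u w, tt c x₀ z₀ u w = t u w) (hE : Eig (c x₀ z₀) o t θ ω) (hS : SS t ω ≠ 0) (g : G) :
    (h.sub ω).toRepresentation.character g = (SS t ω)⁻¹ * ∑ y : X, ω (c (g • y) y) := by
  let r : Representation ℂ G (h.sub ω).toSubmodule := (h.sub ω).toRepresentation
  let P' : (X → ℂ) →ₗ[ℂ] (h.sub ω).toSubmodule :=
    ((SS t ω)⁻¹ • EE c ω).codRestrict (h.sub ω).toSubmodule (fun f => by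
      rw [LinearMap.smul_apply]
      exact Submodule.smul_mem _ _ (EE_mem f))
  have h1 : P' ∘ₗ (h.sub ω).toSubmodule.subtype = LinearMap.id := by
    ext1 f
    apply Subtype.ext
    show (SS t ω)⁻¹ • EE c ω (f : X → ℂ) = f
    rw [h.EE_of_mem ht hE f.2, smul_smul, inv_mul_cancel₀ hS, one_smul]
  show LinearMap.trace ℂ _ (r g) = (SS t ω)⁻¹ * ∑ y : X, ω (c (g • y) y)
  have h3 := LinearMap.trace_comp_comm' (R := ℂ) (r g ∘ₗ P') ((h.sub ω).toSubmodule.subtype)
  rw [LinearMap.comp_assoc, h1, LinearMap.comp_id] at h3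
  rw [← h3]
  have h4 : (h.sub ω).toSubmodule.subtype ∘ₗ (r g ∘ₗ P') = (SS t ω)⁻¹ • (prep G X g ∘ₗ EE c ω) := by
    refine LinearMap.ext fun f => ?_
    show prep G X g ((SS t ω)⁻¹ • EE c ω f) = (SS t ω)⁻¹ • prep G X g (EE c ω f)
    rw [map_smul]
  rw [h4, map_smul, smul_eq_mul]
  congr 1
  rw [LinearMap.trace_eq_matrix_trace ℂ (Pi.basisFun ℂ X), Matrix.trace]
  refine Finset.sum_congr rfl fun y _ => ?_
  rw [Matrix.diag_apply, LinearMap.toMatrix_apply, Pi.basisFun_apply, LinearMap.comp_apply, EE_single, h.prep_ee,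
    Pi.basisFun_repr]
  show ω (c y (g • y)) = _
  rw [h.symm]

end

variable {G : Type u} [Group G] [Finite G] {X : Type v} [MulAction G X] [Fintype X] {c : X → X → Fin 8} {τ : X → G}

/-- The number of points of a colour. -/
def kk8 : Fin 8 → ℕ := ![1, 1, 3968055, 3968055, 2370830336, 2370830336, 46227456, 22348085760]

theorem kk8_eq : ∀ u, (∑ w, t8 u w) = kk8 u := by decide +kernel

theorem SS_v0 : SS t8 v0 = 27143910000 / 4371 := by
  unfold SS
  simp only [kk8_eq]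
  rw [Fin.sum_univ_eight]
  simp [kk8, v0]
  norm_num

theorem SS_v1 : SS t8 v1 = 27143910000 / 63532485 := by
  unfold SS
  simp only [kk8_eq]
  rw [Fin.sum_univ_eight]
  simp [kk8, v1]
  norm_num

theorem SS_v2 : SS t8 v2 = 27143910000 / 13508418144 := by
  unfold SS
  simp only [kk8_eq]
  rw [Fin.sum_univ_eight]
  simp [kk8, v2]
  norm_num

theorem Fr.card (F : Fr G X c τ) : Fintype.card X = 27143910000 := by
  obtain ⟨x₀, z₀, -, h⟩ := F.ex
  have e : X ≃ Σ u : Fin 8, Σ w : Fin 8, {y // c x₀ y = u ∧ c z₀ y = w} :=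
    ⟨fun y => ⟨c x₀ y, c z₀ y, y, rfl, rfl⟩, fun s => s.2.2.1, fun _ => rfl, fun s => by
      obtain ⟨u, w, y, h1, h2⟩ := s
      subst h1
      subst h2
      rfl⟩
  rw [← Nat.card_eq_fintype_card, Nat.card_congr e, Nat.card_sigma]
  simp only [Nat.card_sigma, h]
  decide +kernel

/-- The number of points of colour `u` from `x`. -/
theorem Fr.card_col (F : Fr G X c τ) (x : X) (u : Fin 8) : kk c x u = kk8 u := by
  obtain ⟨x₀, z₀, -, h⟩ := F.ex
  rw [F.col.kk_eq x x₀ u, kk_eq_sum x₀ z₀ u, ← kk8_eq]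
  exact Finset.sum_congr rfl fun w _ => h u w

/-- A sum over the points of a function of the colour. -/
theorem Fr.sum_col (F : Fr G X c τ) (x : X) (φ : Fin 8 → ℂ) : ∑ y, φ (c x y) = ∑ u, (kk8 u : ℂ) * φ u := by
  classical
  have h1 : ∀ u, (kk8 u : ℂ) * φ u = ∑ y, if c x y = u then φ u else 0 := by
    intro u
    rw [← Finset.sum_filter, Finset.sum_const, nsmul_eq_mul, ← F.card_col x u]
    congr 1
    unfold kk
    rw [Nat.card_eq_fintype_card, Fintype.card_subtype]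
  simp only [h1]
  rw [Finset.sum_comm]
  refine Finset.sum_congr rfl fun y _ => ?_
  rw [Finset.sum_ite_eq]
  simp

theorem irr_of (F : Fr G X c τ) {θ : ℂ} {ω : Fin 8 → ℂ} (hE : Eig (3 : Fin 8) 0 t8 θ ω) (hS : SS t8 ω ≠ 0) :
    IsIrrCharacter G (ch c ω : G → ℂ) := by
  classical
  obtain ⟨x₀, z₀, hz, h⟩ := F.ex
  have hE' : Eig (c x₀ z₀) 0 t8 θ ω := by rw [hz]; exact hE
  have h1 := isIrrCharacter_of_rep _ (F.col.irr (x₀ := x₀) (z₀ := z₀) h hE')
  have h2 : (F.col.sub ω).toRepresentation.character = (ch c ω : G → ℂ) := by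
    funext g
    exact char_sub F.col h hE' hS g
  rw [← h2]
  exact h1

theorem deg_of (F : Fr G X c τ) {ω : Fin 8 → ℂ} (h1 : ω 0 = 1) {d : ℂ} (hd : d ≠ 0)
    (hS : SS t8 ω = 27143910000 / d) : (ch c ω : G → ℂ) 1 = d := by
  show (SS t8 ω)⁻¹ * ∑ y : X, ω (c ((1 : G) • y) y) = d
  have h2 : ∀ y : X, ω (c ((1 : G) • y) y) = 1 := by
    intro y
    rw [one_smul, F.col.self, h1]
  simp only [h2, Finset.sum_const, Finset.card_univ, nsmul_eq_mul, mul_one, F.card, hS]
  field_simp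
  norm_num

/-- **Piece IRR.** -/
theorem irr_holds : IrrStmt G X c τ := by
  intro F
  refine ⟨irr_of F F.e0 (by rw [SS_v0]; norm_num), irr_of F F.e1 (by rw [SS_v1]; norm_num),
    irr_of F F.e2 (by rw [SS_v2]; norm_num), deg_of F F.e0.one (by norm_num) SS_v0,
    deg_of F F.e1.one (by norm_num) SS_v1, deg_of F F.e2.one (by norm_num) SS_v2⟩

end Cfsg.Agent.H141.BM
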